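import Cfsg.Agent.H406.FE.Tori
import Cfsg.Agent.H598.F4.Num64
import Cfsg.Agent.H520.FC.Defs
import Cfsg.Agent.H330.Gow
import Cfsg.Agent.H210.TC.Row

/-!
# `F₄(q)`, `q = 4, 8, 16, 64`: the concrete hypotheses of the assembly with two isolated tori

* `fact` : the exponent of 2 in the order; `lie` : the characteristic;
* `hdeg`, `hneg` : the possible degrees; `D2_eq` : the two names of the second degree;
* `cube_of` : the cube clause (Gow).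
-/

set_option autoImplicit false

open Cfsg Cfsg.Lie Subgroup

namespace Cfsg.Agent.H406.FE

open Cfsg.Agent.H598.F4.Num
open Cfsg.Agent.H65.Ore

/-- the exponent -/
theorem exists_f {q : ℕ} (hq : q = 4 ∨ q = 8 ∨ q = 16 ∨ q = 64) : ∃ f, 0 < f ∧ q = 2 ^ f := by
  rcases hq with rfl | rfl | rfl | rfl
  · exact ⟨2, by norm_num, by norm_num⟩
  · exact ⟨3, by norm_num, by norm_num⟩
  · exact ⟨4, by norm_num, by norm_num⟩
  · exact ⟨6, by norm_num, by norm_num⟩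

theorem fact {q f : ℕ} (hf : 0 < f) (hq : q = 2 ^ f) : (ordF q).factorization 2 = 24 * f := by
  have h2q : 2 ∣ q := hq ▸ dvd_pow_self 2 hf.ne'
  have hq0 : 0 < q := hq ▸ pow_pos (by norm_num) f
  have key : ∀ k : ℕ, 0 < k → ¬ 2 ∣ q ^ k - 1 := by
    intro k hk h
    have h3 : 2 ∣ q ^ k := h2q.trans (dvd_pow_self q hk.ne')
    have h4 : 1 ≤ q ^ k := Nat.one_le_pow _ _ hq0
    omega
  have hM : ¬ 2 ∣ (q ^ 2 - 1) * (q ^ 6 - 1) * (q ^ 8 - 1) * (q ^ 12 - 1) := by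
    intro h
    rcases Nat.prime_two.dvd_mul.1 h with h | h
    · rcases Nat.prime_two.dvd_mul.1 h with h | h
      · rcases Nat.prime_two.dvd_mul.1 h with h | h
        · exact key 2 (by norm_num) h
        · exact key 6 (by norm_num) h
      · exact key 8 (by norm_num) h
    · exact key 12 (by norm_num) h
  have hM0 : (q ^ 2 - 1) * (q ^ 6 - 1) * (q ^ 8 - 1) * (q ^ 12 - 1) ≠ 0 := fun h => hM (h ▸ dvd_zero 2)
  have h1 : ordF q = 2 ^ (24 * f) * ((q ^ 2 - 1) * (q ^ 6 - 1) * (q ^ 8 - 1) * (q ^ 12 - 1)) := by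
    have h2 : q ^ 24 = 2 ^ (24 * f) := by rw [hq, ← pow_mul, mul_comm]
    rw [ordF, ← h2]; ring
  rw [h1, Nat.factorization_mul (pow_ne_zero _ two_ne_zero) hM0, Finsupp.add_apply, Nat.prime_two.factorization_pow,
    Finsupp.single_eq_same, Nat.factorization_eq_zero_of_not_dvd hM, add_zero]

theorem lie (K : Type) [Field K] [Fintype K] [CharP K 2] : IsLieTypeChar 2 ↥(chevF4.group K) :=
  Or.inr (Or.inr (Or.inr (Or.inr (Or.inr (Or.inr (Or.inl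
    ⟨K, inferInstance, inferInstance, inferInstance, Or.inr (Or.inl ⟨MulEquiv.refl _⟩)⟩))))))

theorem charP_two {K : Type*} [Field K] [Fintype K] {q : ℕ} (hq : q = 4 ∨ q = 8 ∨ q = 16 ∨ q = 64)
    (hK : Fintype.card K = q) : CharP K 2 := by
  have h1 : Fintype.card K % 2 = 0 := by rw [hK]; omega
  have h2 := (FiniteField.even_card_iff_char_two (F := K)).2 h1
  rw [← h2]
  exact ringChar.charP K

theorem D2_eq {q : ℕ} (hq : q = 4 ∨ q = 8 ∨ q = 16 ∨ q = 64) : D2 q = H520.FC.d2 q := by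
  rcases hq with rfl | rfl | rfl | rfl <;> decide +kernel

theorem D2_sq {q : ℕ} (hq : q = 4 ∨ q = 8 ∨ q = 16 ∨ q = 64) : D2 q * D2 q ≤ ordF q := by
  rcases hq with rfl | rfl | rfl | rfl <;> decide +kernel

theorem D2_lt {q : ℕ} (hq : q = 4 ∨ q = 8 ∨ q = 16 ∨ q = 64) : D2 q < q ^ 24 := by
  rcases hq with rfl | rfl | rfl | rfl <;> decide +kernel

/-- the small degrees -/
theorem hdeg {q : ℕ} (hq : q = 4 ∨ q = 8 ∨ q = 16 ∨ q = 64) {d : ℕ} (hd : d ∣ ordF q) {a b : ℤ}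
    (ha : a = 1 ∨ a = -1) (hb : b = 1 ∨ b = -1) (h1 : ((q ^ 4 - q ^ 2 + 1 : ℕ) : ℤ) ∣ (d : ℤ) - a)
    (h2 : ((q ^ 4 + 1 : ℕ) : ℤ) ∣ (d : ℤ) - b) (hlt : d < D2 q) :
    d = 1 ∨ ∃ k < (ordF q).factorization 2, d = 2 ^ k := by
  obtain ⟨f, hf, hqf⟩ := exists_f hq
  have h4 : d * d ≤ ordF q := (Nat.mul_le_mul hlt.le hlt.le).trans (D2_sq hq)
  rcases num_even hq hd ha hb h1 h2 h4 with h | h | h | h
  · exact Or.inl h.1
  · refine Or.inr ⟨f * 12, by rw [fact hf hqf]; omega, ?_⟩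
    rw [h, pow_mul, ← hqf]
  · exact absurd h.2 (by omega)
  · exact absurd (h.1 ▸ hlt) (not_lt.2 (D2_lt hq).le)

/-- the signs -/
theorem hneg {q : ℕ} (hq : q = 4 ∨ q = 8 ∨ q = 16 ∨ q = 64) {d : ℕ} (hd : d ∣ ordF q) {a b : ℤ}
    (ha : a = 1 ∨ a = -1) (hb : b = 1 ∨ b = -1) (h1 : ((q ^ 4 - q ^ 2 + 1 : ℕ) : ℤ) ∣ (d : ℤ) - a)
    (h2 : ((q ^ 4 + 1 : ℕ) : ℤ) ∣ (d : ℤ) - b) (hK : d * d ≤ ordF q) :
    d = 1 ∨ a * b = -1 ∨ 2 ^ (ordF q).factorization 2 ∣ d := by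
  obtain ⟨f, hf, hqf⟩ := exists_f hq
  rcases num_even_full hq hd ha hb h1 h2 hK with h | h | h | h | h
  · exact Or.inl h.1
  · exact Or.inr (Or.inl (by rw [h.2.1, h.2.2]; norm_num))
  · exact Or.inr (Or.inl (by rw [h.2.1, h.2.2]; norm_num))
  · exact Or.inr (Or.inl (by rw [h.2.1, h.2.2]; norm_num))
  · refine Or.inr (Or.inr ?_)
    rw [fact hf hqf, h.1, mul_comm 24 f, pow_mul, ← hqf]

theorem cop {q : ℕ} (hq : q = 4 ∨ q = 8 ∨ q = 16 ∨ q = 64) : (q ^ 4 - q ^ 2 + 1).Coprime (q ^ 4 + 1) := by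
  rcases hq with rfl | rfl | rfl | rfl <;> norm_num

theorem odd₁ {q : ℕ} (hq : q = 4 ∨ q = 8 ∨ q = 16 ∨ q = 64) : ¬ 2 ∣ q ^ 4 - q ^ 2 + 1 := by
  rcases hq with rfl | rfl | rfl | rfl <;> norm_num

theorem odd₂ {q : ℕ} (hq : q = 4 ∨ q = 8 ∨ q = 16 ∨ q = 64) : ¬ 2 ∣ q ^ 4 + 1 := by
  rcases hq with rfl | rfl | rfl | rfl <;> norm_num

theorem big₁ {q : ℕ} (hq : q = 4 ∨ q = 8 ∨ q = 16 ∨ q = 64) : 200 ≤ q ^ 4 - q ^ 2 + 1 := by
  rcases hq with rfl | rfl | rfl | rfl <;> norm_num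

theorem big₂ {q : ℕ} (hq : q = 4 ∨ q = 8 ∨ q = 16 ∨ q = 64) : 200 ≤ q ^ 4 + 1 := by
  rcases hq with rfl | rfl | rfl | rfl <;> norm_num

theorem exists_r₁ {q : ℕ} (hq : q = 4 ∨ q = 8 ∨ q = 16 ∨ q = 64) :
    ∃ r : ℕ, r.Prime ∧ r.Coprime 6 ∧ r ∣ q ^ 4 - q ^ 2 + 1 := by
  rcases hq with rfl | rfl | rfl | rfl
  · exact ⟨241, by norm_num, by norm_num, by norm_num⟩
  · exact ⟨37, by norm_num, by norm_num, by norm_num⟩
  · exact ⟨673, by norm_num, by norm_num, by norm_num⟩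
  · exact ⟨38737, by norm_num, by norm_num, by norm_num⟩

theorem exists_r₂ {q : ℕ} (hq : q = 4 ∨ q = 8 ∨ q = 16 ∨ q = 64) :
    ∃ r : ℕ, r.Prime ∧ r.Coprime 6 ∧ r ∣ q ^ 4 + 1 := by
  rcases hq with rfl | rfl | rfl | rfl
  · exact ⟨257, by norm_num, by norm_num, by norm_num⟩
  · exact ⟨241, by norm_num, by norm_num, by norm_num⟩
  · exact ⟨65537, by norm_num, by norm_num, by norm_num⟩
  · exact ⟨673, by norm_num, by norm_num, by norm_num⟩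

/-- the elements of `T - 1` have centralizers of odd order -/
theorem cent_not_dvd {G : Type*} [Group G] [Finite G] {T : Subgroup G} {n p : ℕ} (hT : Nat.card T = n) (hn : ¬ p ∣ n)
    (hc : ∀ a ∈ T, a ≠ 1 → centralizer ({a} : Set G) ≤ T) {a : G} (ha : a ∈ T) (ha1 : a ≠ 1) :
    ¬ p ∣ Nat.card (centralizer ({a} : Set G)) := fun h =>
  hn (hT ▸ h.trans (Subgroup.card_dvd_of_le (hc a ha ha1)))

/-- **The cube clause.** -/
theorem cube_of {G : Type*} [Group G] [Finite G] {p : ℕ} (hp : p.Prime) (hG : IsLieTypeChar p G) {x y : G}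
    (hx1 : x ≠ 1) (hy1 : y ≠ 1) (hx : ¬ p ∣ Nat.card (centralizer ({x} : Set G)))
    (hy : ¬ p ∣ Nat.card (centralizer ({y} : Set G))) (h : ∀ g : G, g ≠ 1 → Prd x y g) (g : G) :
    ∃ u v w : G, g = (u * x * u⁻¹) * (v * x * v⁻¹) * (w * x * w⁻¹) := by
  have hord : ∀ z : G, ¬ p ∣ Nat.card (centralizer ({z} : Set G)) → ¬ p ∣ orderOf z := fun z hz h =>
    hz (h.trans (Subgroup.orderOf_dvd_natCard _ (mem_centralizer_singleton_iff.2 rfl)))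
  by_cases hg : g = 1
  · obtain ⟨u, v, e⟩ := H330.Gow.gow hp hG hx hx (z := x⁻¹) (inv_ne_one.2 hx1) (by rw [orderOf_inv]; exact hord x hx)
    refine ⟨u, v, 1, ?_⟩
    rw [hg, e]
    group
  · obtain ⟨a, b, e⟩ := h g hg
    obtain ⟨u, v, e'⟩ := H330.Gow.gow hp hG hx hx hy1 (hord y hy)
    refine ⟨a, b * u, b * v, ?_⟩
    rw [e, ← e']
    group

end Cfsg.Agent.H406.FE
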