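import Cfsg.Agent.H406.FE.Hyp
import Cfsg.Agent.H357.T6.AsmTwo
import Cfsg.Agent.H997.FE.Defs

/-!
# `F₄(q)`, `q = 4, 8, 16, 64`: the row of S2452 from the bound for `|C(g)|`

`row3_of` : `H997.FE.CBe K` and "`Cen u` implies that the class of `u` has odd size" give `Row3 (F₄(q))`.
-/

set_option autoImplicit false

open Cfsg Cfsg.Lie Subgroup

namespace Cfsg.Agent.H406.FE

open Cfsg.Agent.H598.F4.Num
open Cfsg.Agent.H65.Ore

/-- every element `≠ 1` is a product of conjugates of `x ∈ T12` and `y ∈ T8` -/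
theorem prd_of {K : Type} [Field K] [Fintype K] {q : ℕ} (hq : q = 4 ∨ q = 8 ∨ q = 16 ∨ q = 64)
    (hK : Fintype.card K = q) (hCB : H997.FE.CBe K)
    (hnd : ∀ u : ↥(chevF4.group K), H997.FE.Cen u → ¬ 2 ∣ (centralizer ({u} : Set ↥(chevF4.group K))).index) :
    ∃ x y : ↥(chevF4.group K), (orderOf x).Prime ∧ (orderOf x).Coprime 6 ∧ (orderOf y).Prime ∧ (orderOf y).Coprime 6 ∧
      ¬ 2 ∣ Nat.card (centralizer ({x} : Set ↥(chevF4.group K))) ∧
      ¬ 2 ∣ Nat.card (centralizer ({y} : Set ↥(chevF4.group K))) ∧ ∀ g : ↥(chevF4.group K), g ≠ 1 → Prd x y g := by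
  classical
  have := charP_two hq hK
  have : Finite (IrrCharacter ↥(chevF4.group K)) := Characters.Core.finite_irr
  have : Fintype (IrrCharacter ↥(chevF4.group K)) := Fintype.ofFinite _
  obtain ⟨T, -, h2, h3, h4, h5, h6⟩ := T12 hq hK
  obtain ⟨S, -, k2, k3, k4, k5, k6⟩ := T8 hq hK
  have hN : Nat.card ↥(chevF4.group K) = ordF q := S1062.result hK
  obtain ⟨r₁, hr₁, hr₁6, hr₁d⟩ := exists_r₁ hq
  obtain ⟨r₂, hr₂, hr₂6, hr₂d⟩ := exists_r₂ hq
  have f₁ := Fact.mk hr₁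
  have f₂ := Fact.mk hr₂
  obtain ⟨x', hx'⟩ := exists_prime_orderOf_dvd_card' (G := T) r₁ (by rw [h3]; exact hr₁d)
  obtain ⟨y', hy'⟩ := exists_prime_orderOf_dvd_card' (G := S) r₂ (by rw [k3]; exact hr₂d)
  have hx : orderOf (x' : ↥(chevF4.group K)) = r₁ := by rw [Subgroup.orderOf_coe, hx']
  have hy : orderOf (y' : ↥(chevF4.group K)) = r₂ := by rw [Subgroup.orderOf_coe, hy']
  have hx1 : (x' : ↥(chevF4.group K)) ≠ 1 := by
    intro h; rw [h, orderOf_one] at hx; exact hr₁.one_lt.ne hx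
  have hy1 : (y' : ↥(chevF4.group K)) ≠ 1 := by
    intro h; rw [h, orderOf_one] at hy; exact hr₂.one_lt.ne hy
  refine ⟨x', y', by rwa [hx], by rwa [hx], by rwa [hy], by rwa [hy], cent_not_dvd h3 (odd₁ hq) h4 x'.2 hx1,
    cent_not_dvd k3 (odd₂ hq) k4 y'.2 hy1, ?_⟩
  have hone : ∀ z : ℤ, (z = 0 ∨ z = 1 ∨ z = -1) → -1 ≤ z ∧ z ≤ 1 := by
    rintro z (rfl | rfl | rfl) <;> norm_num
  have b1 := big₁ hq
  have b2 := big₂ hq
  intro g hg
  refine H357.T6.Asm.asm_two Nat.prime_two (lie K) h2 h4 h5 h3 (by omega) (odd₁ hq)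
    (fun χ c h => hone c (h6 χ c h)) k2 k4 k5 k3 (by omega) (odd₂ hq) (fun χ c h => hone c (k6 χ c h)) (cop hq)
    (n := 2) (D := D2 q) (by omega) (by omega) ?_ (Or.inr (Or.inr ⟨rfl, ?_⟩)) ?_ x'.2 hx1 y'.2 hy1 g hg
  · intro d hd a b ha hb e1 e2 hlt
    rw [hN] at hd ⊢
    exact hdeg hq hd ha hb e1 e2 hlt
  · intro d hd hdd a b ha hb e1 e2
    rw [hN] at hd hdd ⊢
    exact hneg hq hd ha hb e1 e2 hdd.le
  · intro g hg2 hi
    have h7 := hCB g hg2 (fun h => hnd g h hi)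
    rw [show Nat.card K = q from Nat.card_eq_fintype_card.trans hK, ← D2_eq hq] at h7
    omega

/-- **The row.** -/
theorem row3_of {K : Type} [Field K] [Fintype K] {q : ℕ} (hq : q = 4 ∨ q = 8 ∨ q = 16 ∨ q = 64)
    (hK : Fintype.card K = q) (hCB : H997.FE.CBe K)
    (hnd : ∀ u : ↥(chevF4.group K), H997.FE.Cen u → ¬ 2 ∣ (centralizer ({u} : Set ↥(chevF4.group K))).index) :
    H210.TC.Row3 ↥(chevF4.group K) := by
  have := charP_two hq hK
  obtain ⟨x, y, h1, h2, h3, h4, h5, h6, h7⟩ := prd_of hq hK hCB hnd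
  have hx1 : x ≠ 1 := by
    rintro rfl; rw [orderOf_one] at h1; exact absurd h1 (by norm_num)
  have hy1 : y ≠ 1 := by
    rintro rfl; rw [orderOf_one] at h3; exact absurd h3 (by norm_num)
  exact ⟨x, y, h1, h2, h3, h4, h7, cube_of Nat.prime_two (lie K) hx1 hy1 h5 h6 h7⟩

end Cfsg.Agent.H406.FE
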